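import Cfsg.Agent.Lib.Spor.HN.Data
import Cfsg.Agent.Lib.Spor.HNA.Main
import Cfsg.Agent.Lib.Spor.HN.Top
import Cfsg.Agent.Lib.Spor.HN.C0

set_option autoImplicit false
set_option maxRecDepth 100000
set_option Elab.async false
set_option exponentiation.threshold 100000

namespace Cfsg.Agent.Spor.HN
open Cfsg.Agent.PG Cfsg.Agent.Spor

noncomputable abbrev γ : ℕ → GL (Fin P.n) (ZMod P.p) := gam P L

theorem γ_of_le {j : ℕ} (h : L.length ≤ j) : γ j = 1 := gam_of_le P h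

theorem hγ : ∀ j, Cfsg.Agent.Spor.HNA.A.length ≤ j → γ j = 1 := fun j hj => γ_of_le (by rw [Cfsg.Agent.Spor.HNA.hlen] at hj; rw [lenL]; exact hj)

theorem lift9 : Lift Cfsg.Agent.Spor.HNA.A γ 72 := lift_last fun j hj => hγ j (by rw [Cfsg.Agent.Spor.HNA.hlen]; exact hj)

theorem mcl8 : ∀ c ∈ Cfsg.Agent.Spor.HNA.cl8_l, HoldsG γ c :=
  (chkM_spec good mcl8_0)

theorem lift8 : Lift Cfsg.Agent.Spor.HNA.A γ 71 :=
  lift_plain Cfsg.Agent.Spor.HNA.hA hγ lift9 Cfsg.Agent.Spor.HNA.ok8 Cfsg.Agent.Spor.HNA.cl8 mcl8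

theorem mcl7 : ∀ c ∈ Cfsg.Agent.Spor.HNA.cl7_l, HoldsG γ c :=
  (chkM_spec good mcl7_0)

theorem lift7 : Lift Cfsg.Agent.Spor.HNA.A γ 70 :=
  lift_plain Cfsg.Agent.Spor.HNA.hA hγ lift8 Cfsg.Agent.Spor.HNA.ok7 Cfsg.Agent.Spor.HNA.cl7 mcl7

theorem mcl6 : ∀ c ∈ Cfsg.Agent.Spor.HNA.cl6_l, HoldsG γ c :=
  (chkM_spec good mcl6_0)

theorem lift6 : Lift Cfsg.Agent.Spor.HNA.A γ 69 :=
  lift_plain Cfsg.Agent.Spor.HNA.hA hγ lift7 Cfsg.Agent.Spor.HNA.ok6 Cfsg.Agent.Spor.HNA.cl6 mcl6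

theorem mcl5 : ∀ c ∈ Cfsg.Agent.Spor.HNA.cl5_l, HoldsG γ c :=
  (chkM_spec good mcl5_0)

theorem lift5 : Lift Cfsg.Agent.Spor.HNA.A γ 68 :=
  lift_plain Cfsg.Agent.Spor.HNA.hA hγ lift6 Cfsg.Agent.Spor.HNA.ok5 Cfsg.Agent.Spor.HNA.cl5 mcl5

theorem mcl4 : ∀ c ∈ Cfsg.Agent.Spor.HNA.cl4_l, HoldsG γ c :=
  (chkM_spec good mcl4_0)

theorem lift4 : Lift Cfsg.Agent.Spor.HNA.A γ 67 :=
  lift_plain Cfsg.Agent.Spor.HNA.hA hγ lift5 Cfsg.Agent.Spor.HNA.ok4 Cfsg.Agent.Spor.HNA.cl4 mcl4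

theorem mcl3 : ∀ c ∈ Cfsg.Agent.Spor.HNA.cl3_l, HoldsG γ c :=
  (forall_take_drop 26 (chkM_spec good mcl3_0)
  (chkM_spec good mcl3_1))

theorem lift3 : Lift Cfsg.Agent.Spor.HNA.A γ 66 :=
  lift_plain Cfsg.Agent.Spor.HNA.hA hγ lift4 Cfsg.Agent.Spor.HNA.ok3 Cfsg.Agent.Spor.HNA.cl3 mcl3

theorem mcl2 : ∀ c ∈ Cfsg.Agent.Spor.HNA.cl2_l, HoldsG γ c :=
  (chkM_spec good mcl2_0)

theorem lift2 : Lift Cfsg.Agent.Spor.HNA.A γ 65 :=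
  lift_dc Cfsg.Agent.Spor.HNA.hA hγ lift3 Cfsg.Agent.Spor.HNA.stab3 Cfsg.Agent.Spor.HNA.ok2 Cfsg.Agent.Spor.HNA.cl2 mcl2

theorem mcl1 : ∀ c ∈ Cfsg.Agent.Spor.HNA.cl1_l, HoldsG γ c :=
  (forall_take_drop 19 (chkM_spec good mcl1_0)
  (chkM_spec good mcl1_1))

theorem lift1 : Lift Cfsg.Agent.Spor.HNA.A γ 64 :=
  lift_dc Cfsg.Agent.Spor.HNA.hA hγ lift2 Cfsg.Agent.Spor.HNA.stab2 Cfsg.Agent.Spor.HNA.ok1 Cfsg.Agent.Spor.HNA.cl1 mcl1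

theorem mcl0 : ∀ c ∈ Cfsg.Agent.Spor.HNA.cl0_l, HoldsG γ c :=
  (forall_take_drop 20 (chkM_spec good mcl0_0)
  (forall_take_drop 7 (chkM_spec good mcl0_1)
  (chkM_spec good mcl0_2)))

theorem lift0 : Lift Cfsg.Agent.Spor.HNA.A γ 63 :=
  lift_dc Cfsg.Agent.Spor.HNA.hA hγ lift1 Cfsg.Agent.Spor.HNA.stab1 Cfsg.Agent.Spor.HNA.ok0 Cfsg.Agent.Spor.HNA.cl0 mcl0

theorem clT : ∀ c ∈ dcClaims 62 64 cjT repsT, HoldsG γ c :=
  (forall_take_drop 22 (chkM_spec good clT_0)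
  (forall_take_drop 13 (chkM_spec good clT_1)
  (forall_take_drop 9 (chkM_spec good clT_2)
  (forall_take_drop 8 (chkM_spec good clT_3)
  (forall_take_drop 8 (chkM_spec good clT_4)
  (forall_take_drop 7 (chkM_spec good clT_5)
  (forall_take_drop 7 (chkM_spec good clT_6)
  (forall_take_drop 7 (chkM_spec good clT_7)
  (forall_take_drop 7 (chkM_spec good clT_8)
  (forall_take_drop 7 (chkM_spec good clT_9)
  (forall_take_drop 7 (chkM_spec good clT_10)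
  (forall_take_drop 8 (chkM_spec good clT_11)
  (forall_take_drop 7 (chkM_spec good clT_12)
  (chkM_spec good clT_13))))))))))))))

theorem mxc : ∀ c ∈ mxClaims mxT, HoldsG γ c :=
  (forall_take_drop 8 (chkM_spec good mxc_0)
  (chkM_spec good mxc_1))

theorem gn : ∀ c ∈ genClaims gn_g, HoldsG γ c :=
  (forall_take_drop 16 (chkM_spec good gn_0)
  (forall_take_drop 11 (chkM_spec good gn_1)
  (forall_take_drop 9 (chkM_spec good gn_2)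
  (chkM_spec good gn_3))))

theorem pc2p : ∀ c ∈ pcPos 2 10 pc2, HoldsG γ c :=
  (forall_take_drop 38 (chkM_spec good pc2p_0)
  (forall_take_drop 34 (chkM_spec good pc2p_1)
  (forall_take_drop 31 (chkM_spec good pc2p_2)
  (forall_take_drop 29 (chkM_spec good pc2p_3)
  (forall_take_drop 30 (chkM_spec good pc2p_4)
  (forall_take_drop 29 (chkM_spec good pc2p_5)
  (chkM_spec good pc2p_6)))))))

theorem pc2n : ∀ c ∈ (pcNeg 10 pc2).map Prod.fst, ¬ HoldsG γ c :=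
  (chkN_spec good pc2n_0)

theorem pc3p : ∀ c ∈ pcPos 3 24 pc3, HoldsG γ c :=
  (forall_take_drop 34 (chkM_spec good pc3p_0)
  (chkM_spec good pc3p_1))

theorem pc3n : ∀ c ∈ (pcNeg 24 pc3).map Prod.fst, ¬ HoldsG γ c :=
  (chkN_spec good pc3n_0)

theorem pc5p : ∀ c ∈ pcPos 5 30 pc5, HoldsG γ c :=
  (forall_take_drop 28 (chkM_spec good pc5p_0)
  (chkM_spec good pc5p_1))

theorem pc5n : ∀ c ∈ (pcNeg 30 pc5).map Prod.fst, ¬ HoldsG γ c :=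
  (chkN_spec good pc5n_0)

theorem cme : ∀ c ∈ cmLet [gw 48] 63 72, HoldsG γ c :=
  (chkM_spec good cme_0)

theorem sm : ∀ c ∈ [(powP [gw 36] 19, []), (powP (gw 36 :: uw) (2 * 5 + 1), []), (uw ++ uw, [])], HoldsG γ c :=
  (chkM_spec good sm_0)

theorem ng : ∀ c ∈ (ng_l).map Prod.fst, ¬ HoldsG γ c :=
  (chkN_spec good ng_0)

end Cfsg.Agent.Spor.HN
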